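import Cfsg.Agent.H824.PG.Def
import Cfsg.Agent.H371.Core.Base

/-!
# Groups with the prime graph classes of `PSL_2(p ^ k)`
-/

set_option autoImplicit false

namespace Cfsg.Agent.H824.PG

open Cfsg.Agent.H94 Cfsg.Agent.H371 Cfsg.Agent.H371.Core Cfsg.Agent.H564.NearTwo

/-- the hypotheses on a simple group -/
structure PB (S : Type*) [Group S] (p k n m : ℕ) : Prop where
  A : Ak p k n m
  cl : Cl S p n m
  gp : p ∣ Nat.card S
  gn : ∀ r : ℕ, r.Prime → r ∣ n → r ∣ Nat.card S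
  gnn : ∀ r s : ℕ, r.Prime → s.Prime → r ∣ n → s ∣ n → r ≠ s → ∃ g : S, orderOf g = r * s

namespace Cl
variable {S : Type*} [Group S] {p k n m : ℕ}

theorem of_adj (h : Cl S p n m) {a b : ℕ} (hab : PG.Adj S a b) : Cls p n m a b := by
  obtain ⟨ha, hb, hne, x, y, hx, hy, hc⟩ := hab
  have h1 : orderOf (x * y) = a * b := by
    rw [hc.orderOf_mul_eq_mul_orderOf_of_coprime, hx, hy]
    rw [hx, hy]
    exact (Nat.coprime_primes ha hb).2 hne
  exact h (x * y) a b ha hb (by rw [h1]; exact dvd_mul_right _ _) (by rw [h1]; exact dvd_mul_left _ _)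

theorem conn_p (h : Cl S p n m) (A : Ar p k n m) {b : ℕ} (hc : PG.Conn S p b) : b = p := by
  unfold PG.Conn at hc
  induction hc with
  | refl => rfl
  | tail _ h2 ih =>
    subst ih
    rcases h.of_adj h2 with ⟨-, h3⟩ | ⟨h3, -⟩ | ⟨h3, -⟩
    · exact h3
    · exact absurd h3 A.not_p_dvd_n
    · exact absurd h3 A.not_p_dvd_m

theorem conn_n (h : Cl S p n m) (A : Ar p k n m) {a b : ℕ} (han : a ∣ n)
    (hc : PG.Conn S a b) : b ∣ n := by
  unfold PG.Conn at hc
  induction hc with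
  | refl => exact han
  | tail _ h2 ih =>
    rcases h.of_adj h2 with ⟨h3, -⟩ | ⟨-, h3⟩ | ⟨h3, -⟩
    · subst h3; exact absurd ih A.not_p_dvd_n
    · exact h3
    · exact absurd (Nat.eq_one_of_dvd_coprimes A.cop_nm ih h3) h2.1.one_lt.ne'

theorem conn_m (h : Cl S p n m) (A : Ar p k n m) {a b : ℕ} (ham : a ∣ m)
    (hc : PG.Conn S a b) : b ∣ m := by
  unfold PG.Conn at hc
  induction hc with
  | refl => exact ham
  | tail _ h2 ih =>
    rcases h.of_adj h2 with ⟨h3, -⟩ | ⟨h3, -⟩ | ⟨-, h3⟩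
    · subst h3; exact absurd ih A.not_p_dvd_m
    · exact absurd (Nat.eq_one_of_dvd_coprimes A.cop_nm h3 ih) h2.1.one_lt.ne'
    · exact h3

end Cl

namespace PB
variable {S : Type*} [Group S] {p k n m : ℕ}

theorem congr {T : Type*} [Group T] (B : PB S p k n m) (e : S ≃* T) : PB T p k n m where
  A := B.A
  cl := B.cl.map e.symm.toMonoidHom e.symm.injective
  gp := by rw [← Nat.card_congr e.toEquiv]; exact B.gp
  gn := by
    intro r hr hrn
    rw [← Nat.card_congr e.toEquiv]; exact B.gn r hr hrn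
  gnn := by
    intro r s hr hs h1 h2 h3
    obtain ⟨g, hg⟩ := B.gnn r s hr hs h1 h2 h3
    exact ⟨e g, by rw [← hg]; exact orderOf_injective e.toMonoidHom e.injective g⟩

variable (B : PB S p k n m)
include B

theorem Ar : H371.Ar p k n m := B.A.toAr

theorem exists_prime : ∃ r : ℕ, r.Prime ∧ r ∣ n := by
  have := B.A.hn3
  obtain ⟨r, hr⟩ := Nat.exists_prime_and_dvd (n := n) (by omega)
  exact ⟨r, hr⟩

theorem ne_two {r : ℕ} (hr : r ∣ n) : r ≠ 2 := by
  rintro rfl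
  exact B.A.not_two_dvd_n hr

theorem not_conn_p : ¬ PG.Conn S 2 p := fun h => B.A.not_p_dvd_m (B.cl.conn_m B.Ar B.A.two_dvd_m h)

theorem not_conn_n {r : ℕ} (hr : r.Prime) (hrn : r ∣ n) : ¬ PG.Conn S 2 r := fun h =>
  hr.one_lt.ne' (Nat.eq_one_of_dvd_coprimes B.A.cop_nm hrn (B.cl.conn_m B.Ar B.A.two_dvd_m h))

theorem not_conn_p_n {r : ℕ} (hrn : r ∣ n) : ¬ PG.Conn S p r := fun h => by
  have := B.cl.conn_p B.Ar h
  subst this
  exact B.A.not_p_dvd_n hrn

theorem not_two : ¬ Two S := by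
  intro h
  obtain ⟨r, hr, hrn⟩ := B.exists_prime
  rcases h B.A.hp hr B.A.hp2 (B.ne_two hrn) B.gp (B.gn r hr hrn) with h1 | h1 | h1
  · exact B.not_conn_p h1
  · exact B.not_conn_n hr hrn h1
  · exact B.not_conn_p_n hrn h1

theorem not_near_p : ¬ Near S p := fun h => B.not_conn_p h.conn.symm

theorem not_near_n {r : ℕ} (hr : r.Prime) (hrn : r ∣ n) : ¬ Near S r :=
  fun h => B.not_conn_n hr hrn h.conn.symm

/-- the primes of `|S|` -/
theorem prime_cases [Finite S] {r : ℕ} (hr : r.Prime) (h : r ∣ Nat.card S) :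
    r = p ∨ r ∣ n ∨ r ∣ m := by
  have := Fact.mk hr
  obtain ⟨g, hg⟩ := exists_prime_orderOf_dvd_card' r h
  rcases B.cl g r r hr hr (by rw [hg]) (by rw [hg]) with h1 | h1 | h1
  · exact Or.inl h1.1
  · exact Or.inr (Or.inl h1.1)
  · exact Or.inr (Or.inr h1.1)

/-- the primes connected to `2` -/
theorem dvd_m_of_conn {r : ℕ} (h : PG.Conn S 2 r) : r ∣ m := B.cl.conn_m B.Ar B.A.two_dvd_m h

/-- an element order divisible by `p` is a power of `p` -/
theorem eq_pow {T : ℕ} (hT0 : T ≠ 0) (h : ∃ g : S, orderOf g = T) (hT : p ∣ T) : ∃ j, T = p ^ j := by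
  obtain ⟨g, rfl⟩ := h
  exact ⟨_, Nat.eq_prime_pow_of_unique_prime_dvd hT0 fun {d} hd hdT => B.cl.of_p B.Ar hd hT hdT⟩

/-- the primes of an element order having a prime in common with `n` -/
theorem dvd_n {T : ℕ} (h : ∃ g : S, orderOf g = T) {r s : ℕ} (hr : r.Prime) (hrn : r ∣ n)
    (hrT : r ∣ T) (hs : s.Prime) (hsT : s ∣ T) : s ∣ n := by
  obtain ⟨g, rfl⟩ := h
  exact B.cl.of_n B.Ar hr hs hrn hrT hsT

/-- all primes of `n` divide the order of the centralizers of elements of one prime order `r ∣ n` -/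
theorem dvd_centralizer [Finite S] {T r s : ℕ} (hr : r.Prime) (hrn : r ∣ n) (hs : s.Prime)
    (hsn : s ∣ n) (hrT : r ∣ T)
    (h : ∀ x : S, orderOf x = r → Nat.card ↥(Subgroup.centralizer {x}) = T) : s ∣ T := by
  by_cases hrs : r = s
  · subst hrs; exact hrT
  obtain ⟨g, hg⟩ := B.gnn r s hr hs hrn hsn hrs
  have hgs : orderOf (g ^ s) = r := by
    rw [orderOf_pow' g hs.ne_zero, hg, Nat.gcd_mul_left_left, Nat.mul_div_cancel _ hs.pos]
  have hgr : orderOf (g ^ r) = s := by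
    rw [orderOf_pow' g hr.ne_zero, hg, Nat.gcd_mul_right_left, Nat.mul_div_cancel_left _ hr.pos]
  have hmem : g ^ r ∈ Subgroup.centralizer {g ^ s} := by
    rw [Subgroup.mem_centralizer_singleton_iff]
    exact (Commute.refl g).pow_pow _ _
  have h1 := orderOf_dvd_natCard (⟨g ^ r, hmem⟩ : ↥(Subgroup.centralizer {g ^ s}))
  rw [Subgroup.orderOf_mk, hgr, h _ hgs] at h1
  exact h1

end PB

end Cfsg.Agent.H824.PG
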