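import Cfsg.Agent.H824.PG.Def
import Cfsg.Agent.H371.OutTwo
import Cfsg.Agent.H371.RedTwo

/-!
# Groups between `PSL_2(q)` and its automorphism group (prime graph version)
-/

set_option autoImplicit false
set_option linter.unusedSectionVars false

namespace Cfsg.Agent.H824.PG

open Matrix
open Cfsg.Agent.H371 Cfsg.Agent.H371.OutTwo
open Cfsg.Agent.ClassicalGeometry.AutPSL.Root
open Cfsg.Agent.ClassicalGeometry.AutPSL.Auto
open Cfsg.Agent.ClassicalGeometry.AutPSL.Main

variable {F : Type*} [Field F] [Fintype F]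

local notation "SL2" => Matrix.SpecialLinearGroup (Fin 2) F
local notation "PSL2" => Matrix.ProjectiveSpecialLinearGroup (Fin 2) F

/-- the matrix `x - x⁻¹` -/
theorem exists_inv {p r : ℕ} [hp : Fact p.Prime] [CharP F p] (hp2 : p ≠ 2) (hr : r.Prime) (hr2 : r ≠ 2) (hrp : r ≠ p)
    (x : SL2) (hx : orderOf (pr x) = r) : ∃ Y : GL (Fin 2) F, Commute Y (toGL x) ∧
      (∃ c : F, scalar (Fin 2) c = ((Y * Y : GL (Fin 2) F) : Matrix (Fin 2) (Fin 2) F)) ∧
      ¬ ∃ c : F, scalar (Fin 2) c = (Y : Matrix (Fin 2) (Fin 2) F) := by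
  have h2 : (2 : F) ≠ 0 := by
    intro h
    have h1 : ((2 : ℕ) : F) = 0 := by exact_mod_cast h
    rw [CharP.cast_eq_zero_iff F p] at h1
    exact hp2 ((Nat.prime_dvd_prime_iff_eq hp.out Nat.prime_two).1 h1)
  obtain ⟨X, hX⟩ : ∃ X : Matrix (Fin 2) (Fin 2) F, X = (x : Matrix (Fin 2) (Fin 2) F) := ⟨_, rfl⟩
  obtain ⟨a, b, c, d, hXe⟩ : ∃ a b c d : F, X = !![a, b; c, d] := ⟨X 0 0, X 0 1, X 1 0, X 1 1, by
    ext i j; fin_cases i <;> fin_cases j <;> rfl⟩
  have hdet : a * d - b * c = 1 := by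
    have := x.2
    rw [← hX, hXe, Matrix.det_fin_two_of] at this
    exact this
  -- `Y = x - x⁻¹`
  obtain ⟨Y, hY⟩ : ∃ Y : Matrix (Fin 2) (Fin 2) F, Y = !![a - d, 2 * b; 2 * c, d - a] := ⟨_, rfl⟩
  have hYY : Y * Y = scalar (Fin 2) ((a + d) ^ 2 - 4) := by
    rw [hY, Matrix.mul_fin_two]
    ext i j
    fin_cases i <;> fin_cases j <;> simp [scalar_apply] <;>
      first | linear_combination (-4) * hdet | linear_combination (0 : F) * hdet
  have hYX : Y * X = X * Y := by
    rw [hY, hXe, Matrix.mul_fin_two, Matrix.mul_fin_two]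
    ext i j
    fin_cases i <;> fin_cases j <;> simp <;> ring
  -- `(a + d)^2 ≠ 4`
  have h4 : (a + d) ^ 2 - 4 ≠ 0 := by
    intro h0
    have h5 : Y * Y = 0 := by rw [hYY, h0]; simp
    -- `x ^ 2 = 1 + Y x`
    have h6 : X * X - 1 = Y * X := by
      rw [hY, hXe, Matrix.mul_fin_two, Matrix.mul_fin_two]
      ext i j
      fin_cases i <;> fin_cases j <;> simp <;>
        first | linear_combination hdet | linear_combination (0 : F) * hdet
    have h7 : (X * X - 1) * (X * X - 1) = 0 := by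
      rw [h6, Matrix.mul_assoc, ← Matrix.mul_assoc X Y X, ← hYX, Matrix.mul_assoc Y X X, ← Matrix.mul_assoc, h5,
        Matrix.zero_mul]
    have h8 : (X * X - 1) ^ p = 0 := by
      obtain ⟨i, hi⟩ : ∃ i, p = 2 + i := ⟨p - 2, by have := hp.out.two_le; omega⟩
      rw [hi, pow_add, pow_two, h7, zero_mul]
    have h9 : (X * X) ^ p = 1 := by
      have : CharP (Matrix (Fin 2) (Fin 2) F) p := inferInstance
      have h10 := sub_pow_char_of_commute (p := p) (Commute.one_right (X * X))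
      rw [h8, one_pow] at h10
      exact (sub_eq_zero.1 h10.symm)
    have h11 : x ^ (2 * p) = 1 := by
      apply Subtype.ext
      rw [Matrix.SpecialLinearGroup.coe_pow, pow_mul, pow_two, ← hX, h9, Matrix.SpecialLinearGroup.coe_one]
    have h12 : pr x ^ (2 * p) = 1 := by rw [← map_pow, h11, map_one]
    have h13 := orderOf_dvd_of_pow_eq_one h12
    rw [hx] at h13
    rcases hr.dvd_mul.1 h13 with h | h
    · exact hr2 ((Nat.prime_dvd_prime_iff_eq hr Nat.prime_two).1 h)
    · exact hrp ((Nat.prime_dvd_prime_iff_eq hr hp.out).1 h)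
  have hYu : IsUnit Y := by
    rw [Matrix.isUnit_iff_isUnit_det, isUnit_iff_ne_zero]
    intro h
    apply h4
    have := hYY
    have h5 : (Y * Y).det = ((a + d) ^ 2 - 4) ^ 2 := by
      rw [hYY]; simp [scalar_apply]
    rw [Matrix.det_mul, h, mul_zero] at h5
    exact pow_eq_zero_iff (two_ne_zero) |>.1 h5.symm
  obtain ⟨Z, hZ⟩ := hYu
  refine ⟨Z, ?_, ⟨(a + d) ^ 2 - 4, ?_⟩, ?_⟩
  · apply Units.ext
    rw [Units.val_mul, Units.val_mul, toGL_val, hZ, ← hX, hYX]
  · rw [Units.val_mul, hZ, hYY]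
  · rintro ⟨s, hs⟩
    rw [hZ, hY] at hs
    have e1 := congrFun (congrFun hs 0) 1
    have e2 := congrFun (congrFun hs 1) 0
    have e3 := congrFun (congrFun hs 0) 0
    have e4 := congrFun (congrFun hs 1) 1
    simp [scalar_apply] at e1 e2 e3 e4
    have hb : b = 0 := by tauto
    have hc : c = 0 := by tauto
    have had : a = d := by
      have : 2 * a = 2 * d := by linear_combination -e3 + e4
      exact mul_left_cancel₀ h2 this
    have h5 : pr x = 1 := by
      rw [pr_eq_one_iff, Matrix.SpecialLinearGroup.mem_center_iff]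
      refine ⟨a, ?_, ?_⟩
      · rw [← hdet, hb, ← had]; simp; ring
      · rw [← hX, hXe, hb, hc, ← had]
        ext i j
        fin_cases i <;> fin_cases j <;> simp [scalar_apply]
    rw [h5, orderOf_one] at hx
    exact hr.one_lt.ne hx

/-- the primes of `n` divide the order of `PSL_2(p ^ k)` -/
theorem exists_elem {p k n m : ℕ} (A : Ak p k n m) (hF : Fintype.card F = p ^ k) {r : ℕ} (hr : r.Prime)
    (hrn : r ∣ n) : ∃ y : PSL2, orderOf y = r := by
  have := Fact.mk hr
  refine exists_prime_orderOf_dvd_card' r ?_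
  have hodd : Fintype.card F % 2 = 1 := by
    rw [hF]
    exact Nat.odd_iff.1 ((Nat.odd_iff.2 A.podd).pow)
  have hcard := RedTwo.card_psl (F := F) hodd
  have h1 : r ∣ 2 * Nat.card PSL2 := by
    rw [hcard]
    refine dvd_mul_of_dvd_right ?_ _
    rcases A.h with ⟨h, -⟩ | ⟨h, -⟩
    · refine dvd_mul_of_dvd_left ?_ _
      rw [hF, ← h]
      exact dvd_mul_of_dvd_right hrn _
    · refine dvd_mul_of_dvd_right ?_ _
      rw [hF, ← h, Nat.add_sub_cancel]
      exact dvd_mul_of_dvd_right hrn _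
  rcases hr.dvd_mul.1 h1 with h | h
  · exfalso
    have := (Nat.prime_dvd_prime_iff_eq hr Nat.prime_two).1 h
    subst this
    exact A.not_two_dvd_n hrn
  · exact h

/-- **Groups between `PSL_2(p ^ k)` and its automorphism group.** -/
theorem inner_of_cl {p k n m : ℕ} [hp : Fact p.Prime] [CharP F p] (A : Ak p k n m)
    (hF : Fintype.card F = p ^ k) (Γ : Subgroup (MulAut PSL2)) (hInn : ∀ x : PSL2, MulAut.conj x ∈ Γ)
    (cl : ∀ α ∈ Γ, ∀ r s : ℕ, r.Prime → s.Prime → r ∣ orderOf α → s ∣ orderOf α → Cls p n m r s) :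
    ∀ α ∈ Γ, ∃ x : PSL2, α = MulAut.conj x := by
  classical
  have hp2 := A.hp2
  have hodd : Fintype.card F % 2 = 1 := by
    rw [hF]
    exact Nat.odd_iff.1 ((Nat.odd_iff.2 A.podd).pow)
  -- a generator
  obtain ⟨g, hg⟩ := IsCyclic.exists_generator (α := Fˣ)
  have hdich : ∀ a : Fˣ, (∃ s : Fˣ, a = s ^ 2) ∨ ∃ s : Fˣ, g = a * s ^ 2 := by
    intro a
    obtain ⟨k, hk⟩ := Subgroup.mem_zpowers_iff.1 (hg a)
    rcases Int.even_or_odd' k with ⟨j, hj | hj⟩
    · left
      exact ⟨g ^ j, by rw [← hk, hj, mul_comm, _root_.zpow_mul, _root_.zpow_ofNat]⟩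
    · right
      refine ⟨g ^ (-j), ?_⟩
      rw [← hk, hj, ← _root_.zpow_natCast, ← _root_.zpow_mul, ← _root_.zpow_add]
      have : (2 * j + 1 + -j * ((2 : ℕ) : ℤ)) = 1 := by push_cast; ring
      rw [this, zpow_one]
  -- membership
  have hmem : ∀ (A B : GL (Fin 2) F) (σ : F ≃+* F) (s : Fˣ), lift (cj A * fld σ) ∈ Γ →
      (B : Matrix (Fin 2) (Fin 2) F).det = (A : Matrix (Fin 2) (Fin 2) F).det * (s : F) ^ 2 →
      lift (cj B * fld σ) ∈ Γ := by
    intro A B σ s h hdet
    obtain ⟨x, hx⟩ := exists_inner hdet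
    rw [map_mul, hx, mul_assoc, ← map_mul]
    exact Γ.mul_mem (hInn _) h
  have hred : ∀ (A : GL (Fin 2) F) (σ : F ≃+* F), lift (cj A * fld σ) ∈ Γ →
      (lift (fld σ : MulAut SL2) ∈ Γ ∧ ∃ x : PSL2, lift (cj A) = MulAut.conj x) ∨
      lift (cj (D g 1) * fld σ) ∈ Γ := by
    intro A σ h
    obtain ⟨a, ha⟩ : ∃ a : Fˣ, (a : F) = (A : Matrix (Fin 2) (Fin 2) F).det :=
      (Matrix.isUnit_iff_isUnit_det _).1 A.isUnit
    rcases hdich a with ⟨s, hs⟩ | ⟨s, hs⟩
    · left
      constructor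
      · have h1 := hmem A (D 1 1) σ s⁻¹ h (by
          rw [D_det, ← ha, hs, ← Units.val_pow_eq_pow_val, ← Units.val_mul, ← Units.val_mul,
            inv_pow, mul_inv_cancel, one_mul])
        rwa [D_one, map_one, one_mul] at h1
      · obtain ⟨x, hx⟩ := exists_inner (A := (1 : GL (Fin 2) F)) (B := A) (s := s) (by
          rw [Units.val_one, Matrix.det_one, one_mul, ← ha, hs, Units.val_pow_eq_pow_val])
        rw [map_one, map_one, mul_one] at hx
        exact ⟨_, hx⟩
    · right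
      apply hmem A (D g 1) σ s h
      rw [D_det, ← ha, Units.val_one, mul_one, ← Units.val_pow_eq_pow_val, ← Units.val_mul, ← hs]
  have : Finite (F ≃+* F) := Finite.of_injective (fun σ => (σ : F → F)) DFunLike.coe_injective
  -- `p` is not adjacent to other primes
  have clp : ∀ α ∈ Γ, ∀ r : ℕ, r.Prime → p ∣ orderOf α → r ∣ orderOf α → r = p := by
    intro α hα r hr h1 h2
    rcases cl α hα p r hp.out hr h1 h2 with ⟨-, h3⟩ | ⟨h3, -⟩ | ⟨h3, -⟩
    · exact h3
    · exact absurd h3 A.not_p_dvd_n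
    · exact absurd h3 A.not_p_dvd_m
  -- (i)
  have hi : ∀ σ : F ≃+* F, lift (fld σ : MulAut SL2) ∈ Γ → σ = 1 := by
    intro σ hσ
    by_contra hne
    obtain ⟨r, hr, hrσ⟩ := Nat.exists_prime_and_dvd (n := orderOf σ)
      (by rw [Ne, orderOf_eq_one_iff]; exact hne)
    obtain ⟨k, hk⟩ := hrσ
    have hpos : 0 < orderOf σ := orderOf_pos σ
    have hk0 : k ≠ 0 := by rintro rfl; rw [mul_zero] at hk; omega
    have hτ : orderOf (σ ^ k) = r := by
      rw [orderOf_pow_of_dvd hk0 (by rw [hk]; exact Dvd.intro_left _ rfl), hk,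
        Nat.mul_div_cancel _ (Nat.pos_of_ne_zero hk0)]
    have hτm : lift (fld (σ ^ k) : MulAut SL2) ∈ Γ := by
      rw [map_pow, map_pow]
      exact Γ.pow_mem hσ k
    have hτo : orderOf (lift (fld (σ ^ k) : MulAut SL2)) = r := by
      have := Fact.mk hr
      apply orderOf_eq_prime
      · rw [← map_pow, ← map_pow, ← hτ, pow_orderOf_eq_one, map_one, map_one]
      · intro h
        have h1 := fld_eq_one h
        rw [h1, orderOf_one] at hτ
        exact hr.one_lt.ne hτ
    by_cases hrp : r = p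
    · -- an involution
      have hc := fld_commute (fld_w (σ ^ k))
      have ho := orderOf_conj (x := (w : SL2)) Nat.prime_two pr_w_pow pr_w_ne
      have h1 : orderOf (lift (fld (σ ^ k) : MulAut SL2) * MulAut.conj (pr (w : SL2))) = p * 2 := by
        rw [hc.orderOf_mul_eq_mul_orderOf_of_coprime, hτo, ho, hrp]
        rw [hτo, ho, hrp]
        exact (Nat.coprime_primes hp.out Nat.prime_two).2 hp2
      exact hp2 (clp _ (Γ.mul_mem hτm (hInn (pr (w : SL2)))) 2 Nat.prime_two (by rw [h1]; exact dvd_mul_right _ _)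
        (by rw [h1]; exact dvd_mul_left _ _)).symm
    · have hc := fld_commute (fld_u (σ ^ k))
      have ho := orderOf_conj (x := (u : SL2)) hp.out pr_u_pow pr_u_ne
      have h1 : orderOf (lift (fld (σ ^ k) : MulAut SL2) * MulAut.conj (pr (u : SL2))) = r * p := by
        rw [hc.orderOf_mul_eq_mul_orderOf_of_coprime, hτo, ho]
        rw [hτo, ho]
        exact (Nat.coprime_primes hr hp.out).2 hrp
      exact hrp (clp _ (Γ.mul_mem hτm (hInn (pr (u : SL2)))) r hr (by rw [h1]; exact dvd_mul_left _ _)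
        (by rw [h1]; exact dvd_mul_right _ _))
  have hgns : ∀ s : Fˣ, g ≠ s ^ 2 := by
    have hgo : orderOf g = Fintype.card F - 1 := by
      rw [orderOf_eq_card_of_forall_mem_zpowers hg, Nat.card_units, Nat.card_eq_fintype_card]
    have hq1 : 1 < Fintype.card F := Fintype.one_lt_card
    intro s hs
    obtain ⟨k, hk⟩ := Subgroup.mem_zpowers_iff.1 (hg s)
    have h1 : g ^ (k * 2 - 1) = 1 := by
      have h0 : g ^ (k * 2) = g := by
        rw [_root_.zpow_mul, hk, _root_.zpow_ofNat]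
        exact hs.symm
      rw [_root_.zpow_sub, h0, zpow_one, mul_inv_cancel]
    rw [← orderOf_dvd_iff_zpow_eq_one, hgo] at h1
    have h2 : (2 : ℤ) ∣ ((Fintype.card F - 1 : ℕ) : ℤ) := by omega
    have h3 := h2.trans h1
    omega
  -- (ii)
  have hii : ∀ σ : F ≃+* F, ¬ lift (cj (D g 1) * fld σ) ∈ Γ := by
    intro σ h
    -- the square
    obtain ⟨g', hg'⟩ : ∃ g' : Fˣ, g' = Units.map (σ : F →* F) g := ⟨_, rfl⟩
    have hsq : ∀ σ' : F ≃+* F, (cj (D g 1) * fld σ') * (cj (D g 1) * fld σ')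
        = cj (D (g * Units.map (σ' : F →* F) g) 1) * fld (σ' * σ') := by
      intro σ'
      rw [mul_assoc, ← mul_assoc (fld σ'), fld_cj_D, map_one, ← mul_assoc, ← mul_assoc, ← map_mul,
        D_mul, one_mul, mul_assoc, ← map_mul]
    have h1 : lift (cj (D (g * g') 1) * fld (σ * σ)) ∈ Γ := by
      rw [hg', ← hsq, map_mul]
      exact Γ.mul_mem h h
    have hg'ns : ∀ s : Fˣ, g' ≠ s ^ 2 := by
      intro s hs
      apply hgns (Units.map (σ.symm : F →* F) s)
      rw [← map_pow, ← hs, hg']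
      apply Units.ext
      simp
    obtain ⟨s, hs⟩ : ∃ s : Fˣ, g * g' = s ^ 2 := by
      rcases hdich g' with ⟨s, hs⟩ | ⟨s, hs⟩
      · exact absurd hs (hg'ns s)
      · exact ⟨g' * s, by rw [hs]; simp only [pow_two]; ac_rfl⟩
    have h2 : lift (fld (σ * σ) : MulAut SL2) ∈ Γ := by
      have h3 := hmem _ (D 1 1) (σ * σ) s⁻¹ h1 (by
        rw [D_det, D_det, hs, ← Units.val_pow_eq_pow_val, ← Units.val_mul, ← Units.val_mul,
          ← Units.val_mul, mul_one, mul_one, inv_pow, mul_inv_cancel])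
      rwa [D_one, map_one, one_mul] at h3
    have hσ2 : σ * σ = 1 := hi _ h2
    have hσ1 : σ = 1 := by
      by_contra hσ1
      have hσo : orderOf σ = 2 := orderOf_eq_prime (by rw [pow_two, hσ2]) hσ1
      have h3 := orderOf_dvd_natCard σ
      rw [hσo, Cfsg.Agent.Lib.FieldAutCard.card_ringAut (p := p) (by have := A.k3; omega) hF] at h3
      have := A.ko
      rw [Nat.odd_iff] at this
      omega
    rw [hσ1] at h
    -- all of `PGL_2`
    have hall : ∀ B : GL (Fin 2) F, lift (cj B) ∈ Γ := by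
      intro B
      obtain ⟨a, ha⟩ : ∃ a : Fˣ, (a : F) = (B : Matrix (Fin 2) (Fin 2) F).det :=
        (Matrix.isUnit_iff_isUnit_det _).1 B.isUnit
      rcases hdich a with ⟨s, hs⟩ | ⟨s, hs⟩
      · obtain ⟨x, hx⟩ := exists_inner (A := (1 : GL (Fin 2) F)) (B := B) (s := s) (by
          rw [Units.val_one, Matrix.det_one, one_mul, ← ha, hs, Units.val_pow_eq_pow_val])
        rw [map_one, map_one, mul_one] at hx
        rw [hx]
        exact hInn _
      · have h3 := hmem (D g 1) B 1 s⁻¹ h (by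
          rw [D_det, ← ha, Units.val_one, mul_one, hs, ← Units.val_pow_eq_pow_val, ← Units.val_mul, inv_pow,
            mul_inv_cancel_right])
        rwa [map_one, mul_one] at h3
    obtain ⟨r, hr, hrn⟩ := Nat.exists_prime_and_dvd (n := n) (by have := A.hn3; omega)
    have hr2 : r ≠ 2 := by rintro rfl; exact A.not_two_dvd_n hrn
    have hrp : r ≠ p := by rintro rfl; exact A.not_p_dvd_n hrn
    obtain ⟨y, hy⟩ := exists_elem A hF hr hrn
    obtain ⟨x, rfl⟩ := pr_surjective y
    obtain ⟨Y, hc, ⟨c, hYY⟩, hYn⟩ := exists_inv (p := p) hp2 hr hr2 hrp x hy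
    have hx1 : pr x ≠ 1 := by
      intro h
      rw [h, orderOf_one] at hy
      exact hr.one_lt.ne hy
    have ho := orderOf_conj (x := x) hr (by rw [← hy, pow_orderOf_eq_one]) hx1
    have hoY : orderOf (lift (cj Y) : MulAut PSL2) = 2 := by
      apply orderOf_eq_prime
      · rw [← map_pow, ← map_pow, pow_two, cj_eq_one_of_scalar hYY, map_one]
      · intro h3
        apply hYn
        have h5 : lift (cj Y * fld (1 : F ≃+* F)) = 1 := by rw [map_one, mul_one, h3]
        exact (eq_one_of_lift h5).1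
    have hcc : Commute (lift (cj Y) : MulAut PSL2) (MulAut.conj (pr x)) := by
      have h3 := (hc.map cj).map lift
      rwa [cj_toGL, lift_conj] at h3
    have h3 : orderOf (lift (cj Y) * MulAut.conj (pr x) : MulAut PSL2) = 2 * r := by
      rw [hcc.orderOf_mul_eq_mul_orderOf_of_coprime, hoY, ho]
      rw [hoY, ho]
      exact (Nat.coprime_primes Nat.prime_two hr).2 hr2.symm
    rcases cl _ (Γ.mul_mem (hall Y) (hInn (pr x))) 2 r Nat.prime_two hr (by rw [h3]; exact dvd_mul_right _ _)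
      (by rw [h3]; exact dvd_mul_left _ _) with ⟨h4, -⟩ | ⟨h4, -⟩ | ⟨-, h4⟩
    · exact hp2 h4.symm
    · exact A.not_two_dvd_n h4
    · exact hr.one_lt.ne' (Nat.eq_one_of_dvd_coprimes A.cop_nm hrn h4)
  intro α hα
  obtain ⟨A, σ, rfl⟩ := surj_two p α
  rcases hred A σ hα with ⟨h1, x, hx⟩ | h1
  · refine ⟨x, ?_⟩
    rw [hi σ h1, map_one, mul_one, hx]
  · exact absurd h1 (hii σ)

end Cfsg.Agent.H824.PG
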