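import Cfsg.Agent.H824.PG.Out
import Cfsg.Agent.H824.PG.Fin
import Cfsg.Agent.H824.PG.PslOdd
import Cfsg.Agent.H371.RedFin

/-!
# Reduction and identification (prime graph version)
-/

set_option autoImplicit false

namespace Cfsg.Agent.H824.PG

open Subgroup Cfsg.Agent.H375 Cfsg.Agent.H371 Cfsg.Agent.H371.RedTwo

section
variable {p k n m : ℕ}

/-- `Cl` for subgroups of quotients -/
theorem Cl.sub {G : Type*} [Group G] (h : Cl G p n m) (K : Subgroup G) [K.Normal] (S : Subgroup (G ⧸ K)) :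
    Cl S p n m :=
  (h.of_surj (QuotientGroup.mk' K) (QuotientGroup.mk'_surjective K)).map S.subtype S.subtype_injective

theorem ne_two' {r : ℕ} (A : Ak p k n m) (hrpn : r = p ∨ r ∣ n) : r ≠ 2 := by
  rintro rfl
  rcases hrpn with h | h
  · exact A.hp2 h.symm
  · exact A.not_two_dvd_n h

/-- primes of `p` and `n` are not adjacent to `2` -/
theorem Cl.no_two_mul {H : Type*} [Group H] (A : Ak p k n m) (h : Cl H p n m) {r : ℕ} (hr : r.Prime)
    (hrpn : r = p ∨ r ∣ n) (g : H) : orderOf g ≠ 2 * r := by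
  intro hg
  have h2 : r ∣ m := h.of_two A.toAr hr (g := g) (Dvd.intro _ hg.symm) (Dvd.intro_left _ hg.symm)
  rcases hrpn with rfl | h3
  · exact A.not_p_dvd_m h2
  · exact hr.one_lt.ne' (Nat.eq_one_of_dvd_coprimes A.cop_nm h3 h2)

/-- **Almost simple groups with socle `PSL_2(p ^ k)`.** -/
theorem top_of_cl {Γ : Type*} [Group Γ] [Finite Γ] (S : Subgroup Γ) [S.Normal]
    (hc : centralizer (S : Set Γ) = ⊥) {F : Type*} [Field F] [Fintype F] [hp : Fact p.Prime]
    [CharP F p] (A : Ak p k n m) (hF : Fintype.card F = p ^ k)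
    (e : S ≃* Matrix.ProjectiveSpecialLinearGroup (Fin 2) F) (cl : Cl Γ p n m) : S = ⊤ := by
  let Φ : Γ →* MulAut (Matrix.ProjectiveSpecialLinearGroup (Fin 2) F) :=
    (MulAut.congr e).toMonoidHom.comp (MulAut.conjNormal : Γ →* MulAut S)
  have hΦ : Function.Injective Φ :=
    fun a b hab => conjNormal_injective S hc ((MulAut.congr e).injective hab)
  have hΦs : ∀ s : S, Φ (s : Γ) = MulAut.conj (e s) := fun s => congr_conjNormal S e s
  have key := inner_of_cl (F := F) (p := p) A hF Φ.range (by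
    intro y
    exact ⟨(e.symm y : S), by rw [hΦs, e.apply_symm_apply]⟩) (by
    rintro _ ⟨x, rfl⟩ r s hr hs h1 h2
    rw [orderOf_injective Φ hΦ] at h1 h2
    exact cl x r s hr hs h1 h2)
  rw [eq_top_iff]
  intro x _
  obtain ⟨y, hy⟩ := key (Φ x) ⟨x, rfl⟩
  have h1 : Φ x = Φ ((e.symm y : S) : Γ) := by rw [hΦs, e.apply_symm_apply, hy]
  rw [hΦ h1]
  exact (e.symm y).2

/-- **Identification.** -/
theorem iso_of_psl {G : Type*} [Group G] [Finite G] (A : Ak p k n m) (cl : Cl G p n m) (K : Subgroup G) [K.Normal]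
    (hpK : ¬ p ∣ Nat.card K) (S : Subgroup (G ⧸ K)) [S.Normal]
    (hc : centralizer (S : Set (G ⧸ K)) = ⊥) {F : Type*} [Field F] [Fintype F] [hp : Fact p.Prime]
    [CharP F p] (hF : Fintype.card F = p ^ k) (e : S ≃* Matrix.ProjectiveSpecialLinearGroup (Fin 2) F) :
    Nonempty (G ≃* Matrix.ProjectiveSpecialLinearGroup (Fin 2) F) := by
  have hK : K = ⊥ := by
    have hcardU : Nat.card (Multiplicative F) = p ^ k := by
      rw [Nat.card_congr (Multiplicative.toAdd (α := F)), Nat.card_eq_fintype_card, hF]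
    refine eq_bot_of_cl hp.out (fun g t ht h1 h2 => cl.of_p A.toAr ht h1 h2) K hpK (U := Multiplicative F)
      (IsPGroup.of_card hcardU) ?_ ((S.subtype.comp e.symm.toMonoidHom).comp (CoverTwo.upHom F)) ?_
    · intro hcyc
      obtain ⟨g, hg⟩ := hcyc.exists_generator
      have h1 := orderOf_eq_card_of_forall_mem_zpowers hg
      rw [hcardU] at h1
      have h2 : g ^ p = 1 := by
        have h3 : Multiplicative.ofAdd (p • g.toAdd) = g ^ p := rfl
        rw [← h3, nsmul_eq_mul, CharP.cast_eq_zero, zero_mul, ofAdd_zero]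
      have h3 := orderOf_dvd_of_pow_eq_one h2
      rw [h1] at h3
      have h4 := Nat.le_of_dvd hp.out.pos h3
      have h5 : p ^ 2 ≤ p ^ k := Nat.pow_le_pow_right hp.out.pos (by have := A.k3; omega)
      have h6 := hp.out.two_le
      nlinarith
    · intro a b hab
      have h1 := e.symm.injective (S.subtype_injective hab)
      have h2 : CoverTwo.prj F (Cfsg.Agent.ClassicalGeometry.SplitTorus.up a.toAdd) =
          CoverTwo.prj F (Cfsg.Agent.ClassicalGeometry.SplitTorus.up b.toAdd) := h1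
      exact Multiplicative.toAdd.injective (CoverTwo.prj_up_eq h2)
  have hS : S = ⊤ := top_of_cl S hc (F := F) (p := p) A hF e
    (cl.of_surj (QuotientGroup.mk' K) (QuotientGroup.mk'_surjective K))
  have e1 : G ≃* G ⧸ K := MulEquiv.ofBijective (QuotientGroup.mk' K)
    ⟨(injective_iff_map_eq_one _).2 (fun x hx => by
      have h1 : x ∈ K := (QuotientGroup.eq_one_iff x).1 hx
      rw [hK] at h1
      exact Subgroup.mem_bot.1 h1), QuotientGroup.mk'_surjective K⟩
  have e2 : S ≃* G ⧸ K := (MulEquiv.subgroupCongr hS).trans Subgroup.topEquiv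
  exact ⟨e1.trans (e2.symm.trans e)⟩

/-- the hypotheses on `S ≤ G / K` -/
structure RH (G : Type*) [Group G] [Finite G] (p k n m : ℕ) (K : Subgroup G) [K.Normal]
    (S : Subgroup (G ⧸ K)) : Prop where
  B : PB G p k n m
  sol : Group.IsSolvable K
  nor : S.Normal
  sim : IsSimpleGroup S
  na : ¬ IsMulCommutative S
  cen : centralizer (S : Set (G ⧸ K)) = ⊥
  two : 2 ∣ Nat.card S
  coc : ∀ r : ℕ, r.Prime → (r = p ∨ r ∣ n) → r ∣ Nat.card K → ¬ 2 ∣ Nat.card K
  inv : ∀ r : ℕ, r.Prime → r ≠ 2 → ¬ r ∣ Nat.card S → ∀ x : MulAut S, x ^ r = 1 →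
    ∃ g : S, orderOf g = 2 ∧ x g = g

namespace RH
variable {G : Type*} [Group G] [Finite G] {K : Subgroup G} [K.Normal] {S : Subgroup (G ⧸ K)} (H : RH G p k n m K S)
include H

theorem not_dvd_K {r : ℕ} (hr : r.Prime) (hrpn : r = p ∨ r ∣ n) : ¬ r ∣ Nat.card K := by
  intro hd
  have := H.nor
  exact Reduce.not_dvd_card hr (ne_two' H.B.A hrpn) (H.B.cl.no_two_mul H.B.A hr hrpn) K H.sol
    (H.coc r hr hrpn hd) S H.sim H.na H.two hd

theorem dvd_G {r : ℕ} (hr : r.Prime) (hrpn : r = p ∨ r ∣ n) : r ∣ Nat.card G := by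
  rcases hrpn with rfl | h
  · exact H.B.gp
  · exact H.B.gn r hr h

theorem dvd_S {r : ℕ} (hr : r.Prime) (hrpn : r = p ∨ r ∣ n) : r ∣ Nat.card S := by
  by_contra hrS
  have := H.nor
  have := Fact.mk hr
  obtain ⟨g, hg⟩ := exists_prime_orderOf_dvd_card' r (H.dvd_G hr hrpn)
  have hrK := H.not_dvd_K hr hrpn
  have h1 : orderOf (QuotientGroup.mk' K g) = r := by
    rw [Reduce.orderOf_mk K g (by rw [hg]; exact (Nat.Prime.coprime_iff_not_dvd hr).2 hrK), hg]
  set x := QuotientGroup.mk' K g with hx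
  obtain ⟨t, ht, htx⟩ := H.inv r hr (ne_two' H.B.A hrpn) hrS (MulAut.conjNormal x) (by
    rw [← map_pow, ← h1, pow_orderOf_eq_one, map_one])
  have h2 : Commute x (t : G ⧸ K) := by
    have := congrArg Subtype.val htx
    rw [MulAut.conjNormal_apply] at this
    exact mul_inv_eq_iff_eq_mul.1 this
  have h3 : Cl (G ⧸ K) p n m := H.B.cl.of_surj (QuotientGroup.mk' K) (QuotientGroup.mk'_surjective K)
  refine h3.no_two_mul H.B.A hr hrpn ((t : G ⧸ K) * x) ?_
  rw [h2.symm.orderOf_mul_eq_mul_orderOf_of_coprime, h1, Subgroup.orderOf_coe, ht]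
  rw [h1, Subgroup.orderOf_coe, ht]
  exact (Nat.coprime_primes Nat.prime_two hr).2 (ne_two' H.B.A hrpn).symm

theorem clS : Cl S p n m := H.B.cl.sub K S

/-- **The socle is not `A_7`.** -/
theorem not_alt_seven (e : S ≃* alternatingGroup (Fin 7)) : False := by
  have h3m : 3 ∣ m := by
    have h1 : orderOf (e.symm six) = 6 := by rw [MulEquiv.orderOf_eq, orderOf_six]
    exact H.clS.of_two H.B.A.toAr Nat.prime_three (g := e.symm six) (by rw [h1]; norm_num) (by rw [h1]; norm_num)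
  have hcard : 2 * Nat.card S = 5040 := by
    rw [Nat.card_congr e.toEquiv, two_mul_nat_card_alternatingGroup, Nat.card_eq_fintype_card,
      Fintype.card_perm, Fintype.card_fin]
    rfl
  have key : ∀ r : ℕ, r.Prime → (r = p ∨ r ∣ n) → r = 5 ∨ r = 7 := by
    intro r hr hrpn
    have h1 : r ∣ 2 * Nat.card S := (H.dvd_S hr hrpn).mul_left 2
    rw [hcard] at h1
    have h2 : (5040 : ℕ) = 2 ^ 4 * (3 ^ 2 * (5 * 7)) := by norm_num
    rw [h2] at h1
    rcases hr.dvd_mul.1 h1 with h3 | h3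
    · exact absurd ((Nat.prime_dvd_prime_iff_eq hr Nat.prime_two).1 (hr.dvd_of_dvd_pow h3)) (ne_two' H.B.A hrpn)
    rcases hr.dvd_mul.1 h3 with h3 | h3
    · exfalso
      have h4 := (Nat.prime_dvd_prime_iff_eq hr Nat.prime_three).1 (hr.dvd_of_dvd_pow h3)
      subst h4
      rcases hrpn with h5 | h5
      · exact H.B.A.not_p_dvd_m (h5 ▸ h3m)
      · exact H.B.A.not_m hr h5 h3m
    rcases hr.dvd_mul.1 h3 with h3 | h3
    · exact Or.inl ((Nat.prime_dvd_prime_iff_eq hr (by norm_num)).1 h3)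
    · exact Or.inr ((Nat.prime_dvd_prime_iff_eq hr (by norm_num)).1 h3)
  have hn : ∀ r : ℕ, r.Prime → r ∣ n → r ≠ p ∧ (r = 5 ∨ r = 7) := by
    intro r hr hrn
    refine ⟨?_, key r hr (Or.inr hrn)⟩
    rintro rfl
    exact H.B.A.not_p_dvd_n hrn
  rcases key p H.B.A.hp (Or.inl rfl) with h | h
  · have := H.B.single (r₀ := 7) fun r hr hrn => by
      obtain ⟨h2, h3 | h3⟩ := hn r hr hrn
      · exact absurd (h3.trans h.symm) h2
      · exact h3
    omega
  · have := H.B.single (r₀ := 5) fun r hr hrn => by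
      obtain ⟨h2, h3 | h3⟩ := hn r hr hrn
      · exact h3
      · exact absurd (h3.trans h.symm) h2
    omega

/-- prime divisors of the order -/
theorem prime_cases {F : Type*} [Field F] [Fintype F] {s g : ℕ} (hs : s.Prime)
    (hg : Fintype.card F = s ^ g) (hodd : Fintype.card F % 2 = 1)
    (e : S ≃* Matrix.ProjectiveSpecialLinearGroup (Fin 2) F) {r : ℕ} (hr : r.Prime) (hrpn : r = p ∨ r ∣ n) :
    r = s ∨ r ∣ (Fintype.card F + 1) / 2 ∨ r ∣ (Fintype.card F - 1) / 2 := by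
  have hr2 := ne_two' H.B.A hrpn
  have hrS := H.dvd_S hr hrpn
  have hcard := card_psl (F := F) hodd
  rw [← Nat.card_congr e.toEquiv] at hcard
  have h1 : r ∣ Fintype.card F * ((Fintype.card F + 1) * (Fintype.card F - 1)) := by
    rw [← hcard]; exact hrS.mul_left 2
  have h2 : ∀ x : ℕ, 2 ∣ x → r ∣ x → r ∣ x / 2 := by
    intro x hx hrx
    obtain ⟨y, rfl⟩ := hx
    rw [Nat.mul_div_cancel_left _ (by norm_num)]
    exact (hr.dvd_mul.1 hrx).resolve_left (fun h => hr2 ((Nat.prime_dvd_prime_iff_eq hr Nat.prime_two).1 h))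
  rcases hr.dvd_mul.1 h1 with h3 | h3
  · left
    rw [hg] at h3
    exact (Nat.prime_dvd_prime_iff_eq hr hs).1 (hr.dvd_of_dvd_pow h3)
  · right
    rcases hr.dvd_mul.1 h3 with h4 | h4
    · left; exact h2 _ (by omega) h4
    · right; exact h2 _ (by omega) h4

/-- **Socle `PSL_2(q')`, `q'` odd.** -/
theorem eq_of_psl {F : Type*} [Field F] [Fintype F] (hodd : Odd (Fintype.card F))
    (e : S ≃* Matrix.ProjectiveSpecialLinearGroup (Fin 2) F) : p ^ k = Fintype.card F := by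
  have hnor := H.nor
  obtain ⟨s, hchar⟩ := CharP.exists F
  obtain ⟨g, hs, hg⟩ := FiniteField.card F s
  have : Fact s.Prime := ⟨hs⟩
  have hoddq : Fintype.card F % 2 = 1 := Nat.odd_iff.1 hodd
  have hq1 : 1 < Fintype.card F := Fintype.one_lt_card
  have hdiv := fun {r : ℕ} (hr : r.Prime) (hrpn : r = p ∨ r ∣ n) =>
    H.prime_cases hs hg hoddq e hr hrpn
  obtain ⟨r₀, hr₀, hr₀n⟩ := H.B.exists_prime
  have hr₀p : r₀ ≠ p := by
    rintro rfl
    exact H.B.A.not_p_dvd_n hr₀n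
  -- `q ≠ 3`
  have hq3 : Fintype.card F ≠ 3 := by
    intro h3
    rw [h3] at hdiv
    have key : ∀ r : ℕ, r.Prime → (r = p ∨ r ∣ n) → r = s := by
      intro r hr hrpn
      rcases hdiv hr hrpn with h | h | h
      · exact h
      · exact absurd ((Nat.prime_dvd_prime_iff_eq hr Nat.prime_two).1 h) (ne_two' H.B.A hrpn)
      · exact absurd (Nat.dvd_one.1 h) hr.one_lt.ne'
    apply hr₀p
    rw [key r₀ hr₀ (Or.inr hr₀n), key p H.B.A.hp (Or.inl rfl)]
  have hq5 : 5 ≤ Fintype.card F := by omega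
  obtain ⟨n', m', B, hnm⟩ := exists_ar hs g.ne_zero hg hoddq hq5
  have hd2 : H390.PslSpec.dd (Fintype.card F) = 2 := H390.PslSpec.dd_odd hodd
  -- the tori
  obtain ⟨y1, hy1⟩ := H390.PslSpec.exists_sub (F := F) (p := s) (by omega)
  obtain ⟨y2, hy2⟩ := H390.PslSpec.exists_add (F := F) (p := s) (by omega)
  rw [hd2] at hy1 hy2
  have hex : ∀ N, (N = (Fintype.card F - 1) / 2 ∨ N = (Fintype.card F + 1) / 2) → ∃ g : S, orderOf g = N := by
    rintro N (rfl | rfl)
    · exact ⟨e.symm y1, by rw [MulEquiv.orderOf_eq, hy1]⟩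
    · exact ⟨e.symm y2, by rw [MulEquiv.orderOf_eq, hy2]⟩
  obtain ⟨xm, hxm⟩ := hex m' (by rcases hnm with ⟨-, h⟩ | ⟨-, h⟩ <;> simp [h])
  obtain ⟨xn, hxn⟩ := hex n' (by rcases hnm with ⟨h, -⟩ | ⟨h, -⟩ <;> simp [h])
  rw [hg]
  refine H.B.A.eq_of_psl B ?_ ?_ ?_ ?_ ?_
  · intro r hr hrm
    exact H.clS.of_two H.B.A.toAr hr (g := xm) (by rw [hxm]; exact B.two_dvd_m) (by rw [hxm]; exact hrm)
  · intro r hr hrn hpn
    exact H.clS.of_p H.B.A.toAr hr (g := xn) (by rw [hxn]; exact hpn) (by rw [hxn]; exact hrn)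
  · intro r t hr ht h1 h2 h3
    exact H.clS.of_n H.B.A.toAr hr ht h1 (g := xn) (by rw [hxn]; exact h2) (by rw [hxn]; exact h3)
  · have := hdiv H.B.A.hp (Or.inl rfl)
    rcases hnm with ⟨h1, h2⟩ | ⟨h1, h2⟩ <;> rw [h1, h2] <;> tauto
  · intro r hr hrn
    have := hdiv hr (Or.inr hrn)
    rcases hnm with ⟨h1, h2⟩ | ⟨h1, h2⟩ <;> rw [h1, h2] <;> tauto

theorem iso_of_altL2 {F : Type*} [Field F] [Fintype F] [hp : Fact p.Prime] [CharP F p]
    (hF : Fintype.card F = p ^ k) (hS : AltL2 S) :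
    Nonempty (G ≃* Matrix.ProjectiveSpecialLinearGroup (Fin 2) F) := by
  rcases hS with ⟨⟨e⟩⟩ | ⟨F', _, _, hodd, ⟨e⟩⟩
  · exact (H.not_alt_seven e).elim
  · have h1 := H.eq_of_psl hodd e
    obtain ⟨e'⟩ := Cfsg.Agent.H363.PslCard.psl_of_card (n := Fin 2) (F := F') (F' := F) (by rw [← h1, hF])
    have := H.nor
    exact iso_of_psl H.B.A H.B.cl K (H.not_dvd_K hp.out (Or.inl rfl)) S H.cen hF (e.trans e')

end RH

end

end Cfsg.Agent.H824.PG
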